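import Cfsg.Agent.H47.Y555.AUData

/-! Kernel checks of facts 0 to 5575: A, subgroup U. -/

set_option autoImplicit false

namespace Cfsg.Agent.H47.Y555.AU

open Cfsg.Agent.H16 Cfsg.Agent.H16.EnumData

theorem facts_0 : allFrom (fun i => data.checkFact i) 2000 0 = true := by decide +kernel

theorem facts_2000 : allFrom (fun i => data.checkFact i) 2000 2000 = true := by decide +kernel

theorem facts_4000 : allFrom (fun i => data.checkFact i) 1575 4000 = true := by decide +kernel

end Cfsg.Agent.H47.Y555.AU
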