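import Cfsg.Agent.H47.Y555.XGroup
import Cfsg.Agent.H47.Y555.AUCheck
import Cfsg.Agent.H47.Y555.BUCheck
import Cfsg.Agent.H47.Y555.BlockData

/-! Two enumeration steps: the end node lies in the group on the other nodes. -/

set_option autoImplicit false

namespace Cfsg.Agent.H47.Y555

open Cfsg.Spor Cfsg.Agent.H16 Cfsg.Agent.H16.EnumData Cfsg.Agent.H16.CoxEnum

/-- relators on nine letters -/
def baseB : List (List Nat) := coxW 9 ++ [spiderW, zW]

/-- relators on ten letters -/
def baseA : List (List Nat) := coxW 10 ++ [spiderW, zW]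

/-- generators cut off beyond a bound -/
def cut {G : Type*} [One G] (n : Nat) (t : Nat → G) (g : Nat) : G := if g < n then t g else 1

theorem cut_sq {G : Type*} [Group G] {n : Nat} {t : Nat → G} (h : ∀ g, t g * t g = 1) (g : Nat) :
    cut n t g * cut n t g = 1 := by
  unfold cut; split <;> simp [h]

/-- the node map of a step -/
structure StepData (D : EnumData) (n : Nat) (base : List (List Nat)) : Prop where
  valid : D.Valid
  ng_eq : D.ng = n
  rels : ∀ k, k < D.nrel → relOK base (nthWord D.words k) = true
  subs : ∀ k, k < D.words.length → D.nrel ≤ k → ∀ g ∈ nthWord D.words k, g + 1 < n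

theorem smul_act {G : Type*} [Group G] {D : EnumData} {n : Nat} {base : List (List Nat)}
    (hD : StepData D n base) {t : Nat → G} (hsq : ∀ g, t g * t g = 1)
    (hb : ∀ w ∈ base, EnumData.ev t w = 1) (K : Subgroup G) (hK : ∀ g, g + 1 < n → t g ∈ K)
    {i g : Nat} (hi : i < D.n) (hg : g < n) :
    t g • D.node (cut n t) ((1 : G) : G ⧸ K) (D.repNode i) =
      D.node (cut n t) ((1 : G) : G ⧸ K) (D.repNode (D.act i g)) := by
  have hev : ∀ k, EnumData.ev (cut n t) (nthWord D.words k) = EnumData.ev t (nthWord D.words k) :=
    fun k => ev_congr _ _ _ fun x hx => by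
      have := hD.valid.nthWord_lt k x hx
      rw [hD.ng_eq] at this
      simp [cut, this]
  have hrel : ∀ k, k < D.nrel → EnumData.ev (cut n t) (nthWord D.words k) = 1 := fun k hk => by
    rw [hev]
    exact ev_of_relOK t hsq hb (hD.rels k hk)
  have hfix : ∀ k, EnumData.ev (cut n t) (nthWord D.words k) • ((1 : G) : G ⧸ K) =
      ((1 : G) : G ⧸ K) := fun k => by
    rw [MulAction.Quotient.smul_coe, smul_eq_mul, mul_one, QuotientGroup.eq, mul_one]
    refine K.inv_mem ?_
    by_cases hk : k < D.nrel
    · rw [hrel k hk]; exact one_mem _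
    by_cases hl : k < D.words.length
    · rw [hev]
      have hmem : ∀ w : List Nat, (∀ x ∈ w, x + 1 < n) → EnumData.ev t w ∈ K := by
        intro w
        induction w with
        | nil => exact fun _ => one_mem _
        | cons x w ih =>
          exact fun h => mul_mem (ih fun y hy => h y (List.mem_cons_of_mem _ hy))
            (hK x (h x (List.mem_cons_self ..)))
      exact hmem _ (hD.subs k hl (by omega))
    · rw [nthWord_eq_getD, List.getD_eq_default _ _ (by omega)]; exact one_mem _
  have h := D.smul_rep (cut n t) ((1 : G) : G ⧸ K) hD.valid (cut_sq hsq) hrel hfix hi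
    (hD.ng_eq.symm ▸ hg)
  rwa [show cut n t g = t g from if_pos hg] at h

theorem stepA : StepData AU.weakData 10 baseA where
  valid := AU.valid
  ng_eq := rfl
  rels k hk := by
    have h : allFrom (fun k => relOK baseA (nthWord AU.weakData.words k)) AU.weakData.nrel 0 = true := by
      decide +kernel
    exact allFrom_spec h k (Nat.zero_le k) (by omega)
  subs k hl hk g hg := by
    have h : allFrom (fun k => Nat.ble (k + 1) AU.weakData.nrel ||
        (nthWord AU.weakData.words k).all fun g => Nat.ble (g + 2) 10) AU.weakData.words.length 0 = true := by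
      decide +kernel
    have := allFrom_spec h k (Nat.zero_le k) (by omega)
    simp only [Bool.or_eq_true, List.all_eq_true] at this
    rcases this with h1 | h1
    · have := Nat.le_of_ble_eq_true h1; omega
    · have := Nat.le_of_ble_eq_true (h1 g hg); omega

theorem stepB : StepData BU.weakData 9 baseB where
  valid := BU.valid
  ng_eq := rfl
  rels k hk := by
    have h : allFrom (fun k => relOK baseB (nthWord BU.weakData.words k)) BU.weakData.nrel 0 = true := by
      decide +kernel
    exact allFrom_spec h k (Nat.zero_le k) (by omega)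
  subs k hl hk g hg := by
    have h : allFrom (fun k => Nat.ble (k + 1) BU.weakData.nrel ||
        (nthWord BU.weakData.words k).all fun g => Nat.ble (g + 2) 9) BU.weakData.words.length 0 = true := by
      decide +kernel
    have := allFrom_spec h k (Nat.zero_le k) (by omega)
    simp only [Bool.or_eq_true, List.all_eq_true] at this
    rcases this with h1 | h1
    · have := Nat.le_of_ble_eq_true h1; omega
    · have := Nat.le_of_ble_eq_true (h1 g hg); omega

/-- the last of ten generators lies in the group generated by the others -/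
theorem mem_nine {G : Type*} [Group G] {t : Nat → G} (hsq : ∀ g, t g * t g = 1)
    (hb : ∀ w ∈ baseA, EnumData.ev t w = 1) (K : Subgroup G) (hK : ∀ g, g < 9 → t g ∈ K) :
    t 9 ∈ K := by
  have hn : AU.weakData.n = 1 := by decide +kernel
  have h := smul_act stepA hsq hb K (fun g hg => hK g (by omega)) (i := 0) (g := 9)
    (by omega) (by omega)
  have h0 : AU.weakData.act 0 9 = 0 := by decide +kernel
  rw [h0, AU.valid.repNode_zero, node_zero, MulAction.Quotient.smul_coe, smul_eq_mul, mul_one,
    QuotientGroup.eq, mul_one] at h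
  exact K.inv_mem_iff.1 h

/-- one step of a stabiliser orbit -/
noncomputable def addStep (m code : Nat) : Nat :=
  if (code % 16 < 8 ∧ code / 16 < 1080) ∧
      Nat.testBit m (BU.weakData.act (code / 16) (code % 16)) = true
  then m ||| 2 ^ (code / 16) else m

/-- the points reached by the steps -/
noncomputable def mask (r : Nat) (steps : List Nat) : Nat := steps.foldl addStep (2 ^ r)

/-- the same fold, evaluated step by step -/
noncomputable def maskAux (l : List Nat) : Nat → Nat :=
  List.rec (motive := fun _ => Nat → Nat) (fun m => m)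
    (fun code _ ih m => forceNat (addStep m code) ih) l

theorem maskAux_eq : ∀ (l : List Nat) (m : Nat), maskAux l m = l.foldl addStep m
  | [], _ => rfl
  | code :: l, m => (forceNat_eq (addStep m code) (maskAux l)).trans (maskAux_eq l _)

/-- checks of one orbit -/
noncomputable def blkOK (r : Nat) (gw uw steps : List Nat) : Bool :=
  Nat.ble (r + 1) 1080 && gw.all (fun g => Nat.ble (g + 1) 9) && uw.all (fun g => Nat.ble (g + 1) 8) &&
    Nat.beq (BU.weakData.run gw r) 0 &&
    Nat.testBit (maskAux steps (2 ^ r)) (BU.weakData.run gw (BU.weakData.run uw r))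

theorem blk_ok0 : blkOK blkRep0 blkMove0 blkStab0 blkSteps0 = true := by decide +kernel

theorem blk_ok1 : blkOK blkRep1 blkMove1 blkStab1 blkSteps1 = true := by decide +kernel

theorem mask_cover : allFrom (fun i => Nat.beq i 0 || Nat.testBit (mask blkRep0 blkSteps0) i ||
    Nat.testBit (mask blkRep1 blkSteps1) i) 1080 0 = true := by
  unfold mask
  rw [← maskAux_eq, ← maskAux_eq]
  decide +kernel

theorem base_fixed : (List.range 8).all (fun g => Nat.beq (BU.weakData.act 0 g) 0) = true := by
  decide +kernel

/-- an element of the group on nine letters commuting with eight of them lies among these eight -/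
theorem mem_eight {G : Type*} [Group G] {t : Nat → G} (hsq : ∀ g, t g * t g = 1)
    (hb : ∀ w ∈ baseB, EnumData.ev t w = 1) (K : Subgroup G) (hK : ∀ g, g < 8 → t g ∈ K)
    {f : G} (hf : f ∈ letterSub t (List.range 9)) (hcomm : ∀ g, g < 8 → t g * f = f * t g) :
    f ∈ K := by
  have hn : BU.weakData.n = 1080 := by decide +kernel
  let P : Nat → G ⧸ K := fun i => BU.weakData.node (cut 9 t) ((1 : G) : G ⧸ K) (BU.weakData.repNode i)
  have hact : ∀ i, i < 1080 → ∀ g, g < 9 → t g • P i = P (BU.weakData.act i g) := fun i hi g hg =>
    smul_act stepB hsq hb K (fun g hg => hK g (by omega)) (by omega) hg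
  have hlt : ∀ i, i < 1080 → ∀ g, g < 9 → BU.weakData.act i g < 1080 := fun i hi g hg => by
    have := BU.valid.act_lt (i := i) (g := g) (by omega) (by rw [stepB.ng_eq]; exact hg)
    omega
  have hinv : ∀ i, i < 1080 → ∀ g, g < 9 →
      BU.weakData.act (BU.weakData.act i g) g = i := fun i hi g hg =>
    BU.valid.act_act (by omega) (by rw [stepB.ng_eq]; exact hg)
  have h0 : P 0 = ((1 : G) : G ⧸ K) := by
    show BU.weakData.node _ _ (BU.weakData.repNode 0) = _
    rw [BU.valid.repNode_zero, node_zero]
  have hrun : ∀ (w : List Nat), (∀ g ∈ w, g < 9) → ∀ i, i < 1080 →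
      BU.weakData.run w i < 1080 ∧ P (BU.weakData.run w i) = EnumData.ev t w • P i := by
    intro w
    induction w with
    | nil => exact fun _ i hi => ⟨hi, (one_smul G (P i)).symm⟩
    | cons g w ih =>
      intro hw i hi
      have hg := hw g (List.mem_cons_self ..)
      obtain ⟨h1, h2⟩ := ih (fun x hx => hw x (List.mem_cons_of_mem _ hx)) _ (hlt i hi g hg)
      rw [run_cons, EnumData.ev, mul_smul, hact i hi g hg]
      exact ⟨h1, h2⟩
  let Fixed : Nat → Prop := fun i => ∀ g, g < 8 → t g • P i = P i
  have fix0 : Fixed 0 := fun g hg => by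
    rw [hact 0 (by omega) g (by omega)]
    have := List.all_eq_true.1 base_fixed g (List.mem_range.2 hg)
    rw [Nat.eq_of_beq_eq_true this]
  -- the image of `f`
  obtain ⟨i, hi, hfi⟩ : ∃ i, i < 1080 ∧ f • ((1 : G) : G ⧸ K) = P i := by
    have : ∀ x ∈ letterSub t (List.range 9), ∀ i, i < 1080 → ∃ j, j < 1080 ∧ x • P i = P j := by
      intro x hx
      induction hx using Subgroup.closure_induction'' with
      | one => exact fun i hi => ⟨i, hi, one_smul _ _⟩
      | mem y hy =>
        obtain ⟨g, hg, rfl⟩ := hy
        exact fun i hi => ⟨_, hlt i hi g (List.mem_range.1 hg), hact i hi g (List.mem_range.1 hg)⟩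
      | inv_mem y hy =>
        obtain ⟨g, hg, rfl⟩ := hy
        rw [inv_eq_of_mul_eq_one_right (hsq g)]
        exact fun i hi => ⟨_, hlt i hi g (List.mem_range.1 hg), hact i hi g (List.mem_range.1 hg)⟩
      | mul a b _ _ ha hb =>
        intro i hi
        obtain ⟨j, hj, hj'⟩ := hb i hi
        obtain ⟨k, hk, hk'⟩ := ha j hj
        exact ⟨k, hk, by rw [mul_smul, hj', hk']⟩
    obtain ⟨j, hj, hj'⟩ := this f hf 0 (by omega)
    exact ⟨j, hj, by rw [← h0]; exact hj'⟩
  have hfixi : Fixed i := fun g hg => by
    rw [← hfi, ← mul_smul, hcomm g hg, mul_smul]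
    congr 1
    rw [MulAction.Quotient.smul_coe, smul_eq_mul, mul_one, QuotientGroup.eq, mul_one]
    exact K.inv_mem (hK g hg)
  -- along an orbit
  have horb : ∀ r gw uw steps, blkOK r gw uw steps = true →
      ∀ j, Nat.testBit (mask r steps) j = true → Fixed j → P j = P 0 := by
    intro r gw uw steps hok
    simp only [blkOK, maskAux_eq, Bool.and_eq_true, List.all_eq_true] at hok
    obtain ⟨⟨⟨⟨hr, hgw⟩, huw⟩, hzero⟩, hj'⟩ := hok
    have hr' : r < 1080 := Nat.le_of_ble_eq_true hr
    have key : ∀ (l : List Nat) (m : Nat),
        (∀ j, Nat.testBit m j = true → j < 1080 ∧ ((Fixed j ∨ Fixed r) → P j = P r)) →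
        ∀ j, Nat.testBit (l.foldl addStep m) j = true → j < 1080 ∧ ((Fixed j ∨ Fixed r) → P j = P r) := by
      intro l
      induction l with
      | nil => exact fun m hm => hm
      | cons code l ih =>
        intro m hm
        refine ih _ ?_
        intro j hj
        unfold addStep at hj
        split at hj
        · rename_i hc
          obtain ⟨⟨hg, hchild⟩, hpar⟩ := hc
          rw [Nat.testBit_or, Bool.or_eq_true, Nat.testBit_two_pow, decide_eq_true_iff] at hj
          rcases hj with hj | rfl
          · exact hm j hj
          · refine ⟨hchild, fun hfix => ?_⟩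
            obtain ⟨hp, hP⟩ := hm _ hpar
            set c := code / 16
            set g := code % 16
            have e : t g • P c = P (BU.weakData.act c g) := hact c hchild g (by omega)
            rcases hfix with hfix | hfix
            · have epc : P (BU.weakData.act c g) = P c := by rw [← e, hfix g hg]
              rw [← epc]
              exact hP (Or.inl fun x hx => by rw [epc]; exact hfix x hx)
            · have epr := hP (Or.inr hfix)
              have e2 : t g • P (BU.weakData.act c g) = P c := by
                rw [hact _ hp g (by omega), hinv c hchild g (by omega)]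
              rw [← e2, epr, hfix g hg]
        · exact hm j hj
    have hall := key steps (2 ^ r) (fun j hj => by
      rw [Nat.testBit_two_pow, decide_eq_true_iff] at hj
      subst hj
      exact ⟨hr', fun _ => rfl⟩)
    intro j hj hfj
    have ejr := (hall j hj).2 (Or.inl hfj)
    have hrfix : Fixed r := fun x hx => by rw [← ejr]; exact hfj x hx
    have hu9 : ∀ g ∈ uw, g < 9 := fun g hg => by
      have := Nat.le_of_ble_eq_true (huw g hg); omega
    have hg9 : ∀ g ∈ gw, g < 9 := fun g hg => Nat.le_of_ble_eq_true (hgw g hg)
    obtain ⟨hur, hPur⟩ := hrun uw hu9 r hr'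
    have hfixu : ∀ w : List Nat, (∀ g ∈ w, g < 8) → EnumData.ev t w • P r = P r := by
      intro w
      induction w with
      | nil => exact fun _ => one_smul G _
      | cons g w ih =>
        intro hw
        rw [EnumData.ev, mul_smul, hrfix g (hw g (List.mem_cons_self ..)),
          ih fun x hx => hw x (List.mem_cons_of_mem _ hx)]
    rw [hfixu uw fun g hg => Nat.le_of_ble_eq_true (huw g hg)] at hPur
    have e1 := (hrun gw hg9 _ hur).2
    rw [hPur, ← (hrun gw hg9 r hr').2, Nat.eq_of_beq_eq_true hzero] at e1
    have e2 := (hall _ hj').2 (Or.inl fun x hx => by rw [e1]; exact fix0 x hx)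
    rw [ejr, ← e2, e1]
  have hPi : P i = P 0 := by
    have hc := allFrom_spec mask_cover i (Nat.zero_le i) (by omega)
    simp only [Bool.or_eq_true] at hc
    rcases hc with (hc | hc) | hc
    · rw [Nat.eq_of_beq_eq_true hc]
    · exact horb _ _ _ _ blk_ok0 i hc hfixi
    · exact horb _ _ _ _ blk_ok1 i hc hfixi
  rw [hPi, h0, MulAction.Quotient.smul_coe, smul_eq_mul, mul_one, QuotientGroup.eq, mul_one] at hfi
  exact K.inv_mem_iff.1 hfi

end Cfsg.Agent.H47.Y555
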