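import Cfsg.Prelude.Def_Spor_M
import Cfsg.Agent.H16.Fi23Order
import Cfsg.Agent.H47.Y555.Steps

/-! The spider relation on the diagram Y555 implies the relations for the end nodes. -/

set_option autoImplicit false

namespace Cfsg.Agent.H47.Y555

open Cfsg.Spor Cfsg.Agent.H16 Cfsg.Agent.H16.EnumData Cfsg.Agent.H16.CoxEnum

open Bimonster (Gen)

/-- all nodes -/
def allGen : List Gen :=
  [.a, .b1, .c1, .d1, .e1, .f1, .b2, .c2, .d2, .e2, .f2, .b3, .c3, .d3, .e3, .f3]

theorem mem_allGen (x : Gen) : x ∈ allGen := by cases x <;> decide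

theorem mem_nodes (x : Gen) : x ∈ coxNodes Bimonster.edges := by cases x <;> decide

/-- the letters -/
def letters : List Gen := [.c2, .b2, .a, .b1, .c1, .d1, .b3, .c3, .e1, .f1]

/-- node of a letter -/
def node' (g : Nat) : Gen := letters.getD g .a

/-- the spider word in nodes -/
def spiderG : List Gen := [.a, .b1, .c1, .a, .b2, .c2, .a, .b3, .c3]

/-- arms -/
def armMap (p q r : Gen × Gen × Gen × Gen × Gen) : Gen → Gen
  | .a => .a
  | .b1 => p.1
  | .c1 => p.2.1
  | .d1 => p.2.2.1
  | .e1 => p.2.2.2.1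
  | .f1 => p.2.2.2.2
  | .b2 => q.1
  | .c2 => q.2.1
  | .d2 => q.2.2.1
  | .e2 => q.2.2.2.1
  | .f2 => q.2.2.2.2
  | .b3 => r.1
  | .c3 => r.2.1
  | .d3 => r.2.2.1
  | .e3 => r.2.2.2.1
  | .f3 => r.2.2.2.2

/-- the first arm -/
def arm1 : Gen × Gen × Gen × Gen × Gen := (.b1, .c1, .d1, .e1, .f1)
/-- the second arm -/
def arm2 : Gen × Gen × Gen × Gen × Gen := (.b2, .c2, .d2, .e2, .f2)
/-- the third arm -/
def arm3 : Gen × Gen × Gen × Gen × Gen := (.b3, .c3, .d3, .e3, .f3)

/-- the permutations of the arms -/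
def symms : List (Gen → Gen) :=
  [armMap arm1 arm2 arm3, armMap arm1 arm3 arm2, armMap arm2 arm1 arm3, armMap arm2 arm3 arm1,
   armMap arm3 arm1 arm2, armMap arm3 arm2 arm1]

/-- spider words under the permutations, in letters -/
def spiderLetters : List (List Nat) :=
  [[2,3,4,2,1,0,2,6,7], [2,3,4,2,6,7,2,1,0], [2,1,0,2,3,4,2,6,7], [2,1,0,2,6,7,2,3,4],
   [2,6,7,2,3,4,2,1,0], [2,6,7,2,1,0,2,3,4]]

/-- a family of involutions satisfying the diagram and the spider relation, all odd -/
structure Rel {G : Type*} [Group G] (χ : G →* ℤˣ) (v : Gen → G) : Prop where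
  cox : ∀ x y, (v x * v y) ^ coxLabel Bimonster.edges x y = 1
  spider : (spiderG.map v).prod ^ 10 = 1
  odd : ∀ x, χ (v x) = -1

variable {G : Type*} [Group G] {χ : G →* ℤˣ} {v : Gen → G}

/-- values of the letters -/
def tv (v : Gen → G) (g : Nat) : G := v (node' g)

theorem Rel.sq (h : Rel χ v) (x : Gen) : v x * v x = 1 := by
  have := h.cox x x
  simpa [coxLabel] using this

theorem Rel.tv_sq (h : Rel χ v) (g : Nat) : tv v g * tv v g = 1 := h.sq _

theorem Rel.comm (h : Rel χ v) {x y : Gen} (hl : coxLabel Bimonster.edges x y = 2) :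
    v x * v y = v y * v x := by
  have h2 := h.cox x y
  rw [hl, pow_two] at h2
  rw [← inv_eq_of_mul_eq_one_right h2, mul_inv_rev, inv_eq_of_mul_eq_one_right (h.sq x),
    inv_eq_of_mul_eq_one_right (h.sq y)]

theorem lab_eq : ∀ i < 10, ∀ j < 10, coxLabel Bimonster.edges (node' i) (node' j) = lab i j := by
  decide +kernel

theorem Rel.coxW (h : Rel χ v) {n : Nat} (hn : n ≤ 10) :
    ∀ w ∈ Y555.coxW n, EnumData.ev (tv v) w = 1 := by
  intro w hw
  simp only [Y555.coxW, List.mem_flatMap, List.mem_map, List.mem_range] at hw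
  obtain ⟨i, hi, j, hj, rfl⟩ := hw
  rw [ev_replicate]
  have := h.cox (node' i) (node' j)
  rw [lab_eq i (by omega) j (by omega)] at this
  simpa [EnumData.ev, tv] using this

theorem ev_pow_word (t : Nat → G) (l : List Nat) (m : ℕ) :
    EnumData.ev t (List.replicate m l.reverse).flatten = (l.map t).prod ^ m := by
  rw [ev_replicate, ev_reverse_prod]

theorem spider_letters : [2,3,4,2,1,0,2,6,7].map node' = spiderG := by decide +kernel

theorem Rel.spiderW (h : Rel χ v) : EnumData.ev (tv v) Y555.spiderW = 1 := by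
  rw [Y555.spiderW, ev_pow_word]
  have := h.spider
  rw [← spider_letters, List.map_map] at this
  exact this

theorem Rel.baseX (h : Rel χ v) : ∀ w ∈ Y555.baseX, EnumData.ev (tv v) w = 1 := by
  intro w hw
  rcases List.mem_append.1 hw with hw | hw
  · exact h.coxW (by omega) w hw
  · rw [List.mem_singleton.1 hw]; exact h.spiderW

theorem symms_cox : symms.all (fun σ => allGen.all fun x => allGen.all fun y =>
    Nat.beq (coxLabel Bimonster.edges (σ x) (σ y)) (coxLabel Bimonster.edges x y)) = true := by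
  decide +kernel

theorem spider_all : spiderLetters.all (fun w => xEq (List.replicate 10 w.reverse).flatten []) = true := by
  decide +kernel

theorem symms_spider : ∀ i < 6,
    spiderG.map (symms.getD i id) = (spiderLetters.getD i []).map node' := by decide +kernel

theorem Rel.symm (h : Rel χ v) {i : Nat} (hi : i < 6) : Rel χ (v ∘ symms.getD i id) := by
  have hlen : symms.length = 6 := rfl
  have hlen' : spiderLetters.length = 6 := rfl
  refine ⟨fun x y => ?_, ?_, fun x => h.odd _⟩
  · have hm : symms.getD i id ∈ symms := by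
      rw [List.getD_eq_getElem _ _ (by omega)]; exact List.getElem_mem _
    have h1 := List.all_eq_true.1 symms_cox _ hm
    simp only [List.all_eq_true] at h1
    rw [← Nat.eq_of_beq_eq_true (h1 x (mem_allGen x) y (mem_allGen y))]
    exact h.cox _ _
  · have hm : spiderLetters.getD i [] ∈ spiderLetters := by
      rw [List.getD_eq_getElem _ _ (by omega)]; exact List.getElem_mem _
    have h2 := word_eq h.baseX (List.all_eq_true.1 spider_all _ hm)
    rw [ev_pow_word] at h2
    rw [← List.map_map, symms_spider i hi, List.map_map]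
    exact h2

/-- the map from the group on eight letters -/
def phi (h : Rel χ v) : XGrp →* G := xhom (tv v) h.baseX

theorem Rel.phi_ev (h : Rel χ v) {w : List Nat} (hw : ∀ g ∈ w, g < 8) :
    phi h (EnumData.ev xval w) = EnumData.ev (tv v) w := xhom_ev _ _ hw

theorem Rel.chi_phi (h : Rel χ v) (x : XGrp) : χ (phi h x) = parity x := by
  have e : χ.comp (phi h) = parity := by
    refine PresentedGroup.ext fun i => ?_
    have hi : (PresentedGroup.of i : XGrp) = xval i := by
      simp [xval, freeVal, PresentedGroup.of]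
    rw [hi, MonoidHom.comp_apply, phi, parity, xhom_val _ _ i.2, xhom_val _ _ i.2]
    exact h.odd _
  exact DFunLike.congr_fun e x

/-- the ninth power -/
def cEl (v : Gen → G) : G := EnumData.ev (tv v) cW

theorem cW'_lt : ∀ g ∈ cW', g < 8 := by decide +kernel

theorem xEq_cW' : xEq cW cW' = true := by decide +kernel

theorem Rel.cEl_eq (h : Rel χ v) : cEl v = EnumData.ev (tv v) cW' := word_eq h.baseX xEq_cW'

theorem Rel.cEl_odd (h : Rel χ v) : χ (cEl v) = -1 := by
  rw [cEl, ← h.phi_ev cW_lt, h.chi_phi]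
  exact parity_cW

theorem Rel.cEl_sq (h : Rel χ v) : cEl v * cEl v = 1 := by
  rw [cEl, ← h.phi_ev cW_lt, ← map_mul, cW_sq, map_one]

theorem Rel.cEl_comm_letter (h : Rel χ v) {g : Nat} (hg : g < 8) :
    cEl v * tv v g = tv v g * cEl v := by
  rw [cEl, ← h.phi_ev cW_lt, ← xhom_val (tv v) h.baseX hg, ← phi, ← map_mul, ← map_mul, cW_central]

theorem ev_comm (t : Nat → G) (y : G) :
    ∀ w : List Nat, (∀ g ∈ w, t g * y = y * t g) → EnumData.ev t w * y = y * EnumData.ev t w
  | [], _ => by simp [EnumData.ev]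
  | g :: w, hw => by
    rw [EnumData.ev, mul_assoc, hw g (List.mem_cons_self ..), ← mul_assoc,
      ev_comm t y w fun x hx => hw x (List.mem_cons_of_mem _ hx), mul_assoc]

theorem Rel.cEl_comm_of_label (h : Rel χ v) {y : Gen}
    (hl : cW'.all (fun g => Nat.beq (coxLabel Bimonster.edges (node' g) y) 2) = true) :
    cEl v * v y = v y * cEl v := by
  rw [h.cEl_eq]
  exact ev_comm _ _ _ fun g hg =>
    h.comm (Nat.eq_of_beq_eq_true (List.all_eq_true.1 hl g hg))

/-- exchange of the first two arms -/
def swap12 : Gen → Gen := symms.getD 2 id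

theorem swap12_swap12 (x : Gen) : swap12 (swap12 x) = x := by cases x <;> rfl

/-- the nodes of the diagram of Fi23 -/
def fiMap : Fi23.Gen → Gen
  | .a => .d2
  | .b => .c2
  | .c => .b2
  | .d => .a
  | .e => .b1
  | .f => .c1
  | .g => .d1
  | .j => .e1
  | .h => .b3
  | .i => .c3

theorem fiMap_label (x y : Fi23.Gen) :
    coxLabel Bimonster.edges (fiMap x) (fiMap y) = coxLabel Fi23.edges x y := by
  cases x <;> cases y <;> decide

/-- node of a letter of Fi23 -/
def fiNode (g : Nat) : Gen := fiMap (Fi23H.gens.getD g .a)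

/-- the eighth letters in Fi23 -/
def zF : List Nat := (List.replicate 15 [3,4,2,7,5,1,6,9].reverse).flatten

theorem zF_ok : (allFixed Fi23H.base []).all
    (fun i => Nat.beq (Fi23H.data.run zF i) i) = true := by decide +kernel

theorem zF_lt : ∀ g ∈ zF, g < Fi23H.data.ng := by decide +kernel

theorem zF_one : EnumData.ev Fi23H.val zF = 1 := by
  obtain ⟨hcard, hinj⟩ := Fi23Order.card_and_faithful
  haveI : Finite Fi23 := Nat.finite_of_card_ne_zero (by rw [hcard]; norm_num)
  have h1 := Fi23H.theModel.pow_eq_one_of_base hinj Fi23H.base_ok Fi23H.base_prod hcard zF zF_lt 1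
    (by rw [List.all_eq_true]; intro i hi; simpa using List.all_eq_true.1 zF_ok i hi)
  simpa using h1

theorem z_nodes : ([3,4,2,7,5,1,6,9] : List Nat).map fiNode = [2,3,1,6,4,0,5,8].map node' := by
  decide +kernel

theorem z_len : Y555.zW.length % 2 = 0 := by decide +kernel

theorem ninth_nodes : [Fi23.Gen.a, .b, .c, .d, .e, .f, .h].map fiMap =
    ([5,4,3,2,1,0,6] : List Nat).map (swap12 ∘ node') := by decide +kernel

theorem spider_nodes : [Fi23.Gen.d, .c, .b, .d, .e, .f, .d, .h, .i].map fiMap =
    spiderG.map swap12 := by decide +kernel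

theorem xEq_ninth : xEq (List.replicate 9 [5,4,3,2,1,0,6].reverse).flatten cW = true := by
  decide +kernel

theorem fi_comm_nodes : cW'.all (fun g => Nat.beq (coxLabel Bimonster.edges (node' g) .d2) 2) = true ∧
    cW'.all (fun g => Nat.beq (coxLabel Bimonster.edges (node' g) .e2) 2) = true := by decide +kernel

theorem cW_mem_fi : cW.all (fun g => (List.range 10).any fun j => fiNode j == swap12 (node' g)) = true := by
  decide +kernel

theorem fi_split (x : Fi23.Gen) :
    (List.range 8).any (fun g => swap12 (node' g) == fiMap x) = true ∨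
      fiMap x = swap12 .d2 ∨ fiMap x = swap12 .e2 := by
  cases x <;> decide +kernel

/-- the fifteenth power of a Coxeter element of type E8 is trivial -/
theorem Rel.zW_eq_one (h : Rel χ v) : EnumData.ev (tv v) Y555.zW = 1 := by
  have h2 : Rel χ (v ∘ swap12) := h.symm (i := 2) (by norm_num)
  set c := cEl (v ∘ swap12) with hc
  let K : Subgroup G := Subgroup.closure (Set.range (v ∘ fiMap))
  have hcK : c ∈ K := by
    have hm : ∀ w : List Nat, (∀ g ∈ w, g ∈ cW) → EnumData.ev (tv (v ∘ swap12)) w ∈ K := by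
      intro w
      induction w with
      | nil => exact fun _ => one_mem _
      | cons g w ih =>
        intro hw
        refine mul_mem (ih fun x hx => hw x (List.mem_cons_of_mem _ hx)) ?_
        obtain ⟨j, -, hj⟩ := List.any_eq_true.1
          (List.all_eq_true.1 cW_mem_fi g (hw g (List.mem_cons_self ..)))
        refine Subgroup.subset_closure ⟨Fi23H.gens.getD j .a, ?_⟩
        show v (fiNode j) = v (swap12 (node' g))
        rw [beq_iff_eq.1 hj]
    exact hm cW fun g hg => hg
  have hcomm : ∀ x : Fi23.Gen, c * v (fiMap x) = v (fiMap x) * c := by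
    intro x
    have e : ∀ y, v (fiMap x) = (v ∘ swap12) y ↔ v (fiMap x) = v (swap12 y) := fun y => Iff.rfl
    rcases fi_split x with hx | hx | hx
    · obtain ⟨g, hg, hgx⟩ := List.any_eq_true.1 hx
      rw [show v (fiMap x) = tv (v ∘ swap12) g from by
        show _ = v (swap12 (node' g)); rw [beq_iff_eq.1 hgx]]
      exact h2.cEl_comm_letter (List.mem_range.1 hg)
    · rw [hx]; exact h2.cEl_comm_of_label fi_comm_nodes.1
    · rw [hx]; exact h2.cEl_comm_of_label fi_comm_nodes.2
  have hcen : ∀ k ∈ K, c * k = k * c := by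
    intro k hk
    induction hk using Subgroup.closure_induction with
    | mem y hy => obtain ⟨x, rfl⟩ := hy; exact hcomm x
    | one => simp
    | mul a b _ _ ha hb => rw [← mul_assoc, ha, mul_assoc, hb, ← mul_assoc]
    | inv a _ ha =>
      have := congrArg (fun y => a⁻¹ * y * a⁻¹) ha
      simpa [mul_assoc] using this.symm
  set cK : K := ⟨c, hcK⟩
  haveI : (Subgroup.zpowers cK).Normal := by
    refine ⟨fun n hn k => ?_⟩
    have : k * n * k⁻¹ = n := by
      obtain ⟨m, rfl⟩ := Subgroup.mem_zpowers_iff.1 hn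
      have hk : Commute k cK := Subtype.ext (hcen k k.2).symm
      rw [(hk.zpow_right m).eq, mul_assoc, mul_inv_cancel, mul_one]
    rw [this]; exact hn
  let π := QuotientGroup.mk' (Subgroup.zpowers cK)
  let f : Fi23.Gen → K := fun x => ⟨v (fiMap x), Subgroup.subset_closure ⟨x, rfl⟩⟩
  have hrels : ∀ r ∈ coxRelators Fi23.edges ∪ {r | r ∈ Fi23.extra},
      FreeGroup.lift (fun x => π (f x)) r = 1 := by
    have elift : FreeGroup.lift (fun x => π (f x)) = π.comp (FreeGroup.lift f) :=
      FreeGroup.ext_hom _ _ fun x => by simp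
    intro r hr
    rw [elift, MonoidHom.comp_apply]
    rcases hr with ⟨x, -, y, -, rfl⟩ | hr
    · have : FreeGroup.lift f ((FreeGroup.of x * FreeGroup.of y) ^ coxLabel Fi23.edges x y) = 1 := by
        rw [map_pow, map_mul, FreeGroup.lift_apply_of, FreeGroup.lift_apply_of, ← fiMap_label]
        exact Subtype.ext (h.cox _ _)
      rw [this, map_one]
    · have hr' : r ∈ Fi23.extra := hr
      simp only [Fi23.extra, List.mem_cons, List.not_mem_nil, or_false] at hr'
      have eprod : ∀ l : List Fi23.Gen,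
          (((l.map f).prod : K) : G) = (l.map (v ∘ fiMap)).prod := fun l => by
        rw [Subgroup.val_list_prod, List.map_map]
        rfl
      rcases hr' with rfl | rfl
      · have : FreeGroup.lift f ((Fi23.d * Fi23.c * Fi23.b * Fi23.d * Fi23.e * Fi23.f * Fi23.d *
            Fi23.h * Fi23.i) ^ 10) = ([Fi23.Gen.d, .c, .b, .d, .e, .f, .d, .h, .i].map f).prod ^ 10 := by
          simp [mul_assoc]
        rw [this]
        refine (congrArg π (Subtype.ext ?_)).trans (map_one π)
        rw [Subgroup.coe_pow, eprod, ← List.map_map, spider_nodes, List.map_map]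
        exact h2.spider
      · have : FreeGroup.lift f ((Fi23.a * Fi23.b * Fi23.c * Fi23.d * Fi23.e * Fi23.f * Fi23.h) ^ 9) =
            ([Fi23.Gen.a, .b, .c, .d, .e, .f, .h].map f).prod ^ 9 := by
          simp [mul_assoc]
        rw [this]
        refine (QuotientGroup.eq_one_iff _).2 ?_
        have h9 := word_eq h2.baseX xEq_ninth
        rw [ev_pow_word] at h9
        rw [show (_ : K) ^ 9 = cK from Subtype.ext ?_]
        · exact Subgroup.mem_zpowers _
        · show _ = c
          rw [Subgroup.coe_pow, eprod, ← List.map_map, ninth_nodes, List.map_map]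
          exact h9
  let θ : Fi23 →* K ⧸ Subgroup.zpowers cK := PresentedGroup.toGroup hrels
  let s : Nat → K := fun g => ⟨v (fiNode g), Subgroup.subset_closure ⟨Fi23H.gens.getD g .a, rfl⟩⟩
  have hθ : θ (EnumData.ev Fi23H.val zF) = π (EnumData.ev s zF) := by
    rw [← ev_comp, ← ev_comp]
    refine ev_congr _ _ _ fun g hg => ?_
    have hg' : g < Fi23H.gens.length := zF_lt g hg
    unfold Fi23H.val numGen
    rw [List.getElem?_eq_getElem hg']
    show θ (PresentedGroup.of _) = _
    rw [PresentedGroup.toGroup.of]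
    refine congrArg π (Subtype.ext ?_)
    show _ = v (fiNode g)
    rw [fiNode, List.getD_eq_getElem _ _ hg']
  rw [zF_one, map_one] at hθ
  have hz : ((EnumData.ev s zF : K) : G) = EnumData.ev (tv v) Y555.zW := by
    rw [← Subgroup.coe_subtype, ← ev_comp, zF, Y555.zW, ev_pow_word, ev_pow_word]
    congr 2
  have hmem := (QuotientGroup.eq_one_iff _).1 hθ.symm
  obtain ⟨m, hm⟩ := Subgroup.mem_zpowers_iff.1 hmem
  have hm' : c ^ m = EnumData.ev (tv v) Y555.zW := by
    rw [← hz, ← hm]; rfl
  have hsq : c ^ (2 : ℤ) = 1 := by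
    rw [show (2 : ℤ) = ((2 : ℕ) : ℤ) from rfl, zpow_natCast, pow_two]; exact h2.cEl_sq
  have hev : χ (EnumData.ev (tv v) Y555.zW) = 1 := by
    rw [← ev_comp, ev_congr (fun g => χ (tv v g)) (fun _ => (-1 : ℤˣ)) _ fun g _ => h.odd _, ev_const_neg,
      Int.units_pow_eq_pow_mod_two, z_len, pow_zero]
  rcases Int.even_or_odd' m with ⟨k, rfl | rfl⟩
  · rw [← hm', zpow_mul, hsq, one_zpow]
  · exfalso
    rw [← hm', zpow_add, zpow_mul, hsq, one_zpow, one_mul, zpow_one, h2.cEl_odd] at hev
    exact absurd hev (by decide)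

theorem Rel.baseAB (h : Rel χ v) {n : Nat} (hn : n ≤ 10) :
    ∀ w ∈ Y555.coxW n ++ [Y555.spiderW, Y555.zW], EnumData.ev (tv v) w = 1 := by
  intro w hw
  rcases List.mem_append.1 hw with hw | hw
  · exact h.coxW hn w hw
  · simp only [List.mem_cons, List.not_mem_nil, or_false] at hw
    rcases hw with rfl | rfl
    exacts [h.spiderW, h.zW_eq_one]

theorem lab_f1 : ∀ g < 8, lab g 9 = 2 := by decide +kernel

/-- the end node of the first arm -/
theorem Rel.f1_eq (h : Rel χ v) :
    v .f1 = (([.a, .b1, .b2, .b3, .c1, .c2, .d1] : List Gen).map v).prod ^ 9 := by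
  set K := (phi h).range
  have hK : ∀ g, g < 8 → tv v g ∈ K := fun g hg => ⟨xval g, xhom_val _ _ hg⟩
  have h9 : v .f1 ∈ letterSub (tv v) (List.range 9) :=
    mem_nine h.tv_sq (h.baseAB (by omega)) _
      fun g hg => Subgroup.subset_closure ⟨g, List.mem_range.2 hg, rfl⟩
  have hcomm : ∀ g, g < 8 → tv v g * v .f1 = v .f1 * tv v g := fun g hg =>
    h.comm (y := .f1) ((lab_eq g (by omega) 9 (by omega)).trans (lab_f1 g hg))
  have h8 : v .f1 ∈ K := mem_eight h.tv_sq (h.baseAB (by omega)) K hK h9 hcomm
  have hc : ∀ x, v .f1 * phi h x = phi h x * v .f1 := by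
    intro x
    have hx : x ∈ Subgroup.closure {x | ∃ g, g < 8 ∧ xval g = x} := by
      rw [xval_closure]; exact Subgroup.mem_top x
    induction hx using Subgroup.closure_induction with
    | mem y hy =>
      obtain ⟨g, hg, rfl⟩ := hy
      rw [phi, xhom_val _ _ hg]
      exact (hcomm g hg).symm
    | one => simp
    | mul a b _ _ ha hb => rw [map_mul, ← mul_assoc, ha, mul_assoc, hb, ← mul_assoc]
    | inv a _ ha =>
      rw [map_inv]
      have := congrArg (fun y => (phi h a)⁻¹ * y * (phi h a)⁻¹) ha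
      simpa [mul_assoc] using this.symm
  rw [eq_cW_of_commute (phi h) χ h.chi_phi h8 (h.odd _) hc, h.phi_ev cW_lt, cW, ev_pow_word]
  rfl

end Cfsg.Agent.H47.Y555
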