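import Cfsg.Agent.H47.Y555.XTData

/-! Kernel checks of facts 0 to 308: X, subgroup T. -/

set_option autoImplicit false

namespace Cfsg.Agent.H47.Y555.XT

open Cfsg.Agent.H16 Cfsg.Agent.H16.EnumData

theorem facts_0 : allFrom (fun i => data.checkFact i) 308 0 = true := by decide +kernel

end Cfsg.Agent.H47.Y555.XT
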