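import Cfsg.Agent.H47.Y555.XUData

/-! Kernel checks of facts 24000 to 31396: X, subgroup U. -/

set_option autoImplicit false

namespace Cfsg.Agent.H47.Y555.XU

open Cfsg.Agent.H16 Cfsg.Agent.H16.EnumData

theorem facts_24000 : allFrom (fun i => data.checkFact i) 2000 24000 = true := by decide +kernel

theorem facts_26000 : allFrom (fun i => data.checkFact i) 2000 26000 = true := by decide +kernel

theorem facts_28000 : allFrom (fun i => data.checkFact i) 2000 28000 = true := by decide +kernel

theorem facts_30000 : allFrom (fun i => data.checkFact i) 1396 30000 = true := by decide +kernel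

end Cfsg.Agent.H47.Y555.XU
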