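import Cfsg.Agent.H16.O7Order
import Cfsg.Agent.H16.CosetBasePow
import Cfsg.Agent.H47.Y555.XTCheck
import Cfsg.Agent.H47.Y555.XUCheck

/-! The group on the diagram Y322 with the spider relation: it is twice a simple orthogonal group. -/

set_option autoImplicit false

namespace Cfsg.Agent.H47.Y555

open Cfsg.Spor Cfsg.Agent.H16 Cfsg.Agent.H16.EnumData Cfsg.Agent.H16.CoxEnum

/-- a product read left to right as a word in path order -/
theorem ev_reverse_prod {G : Type*} [Group G] (s : Nat → G) :
    ∀ w : List Nat, EnumData.ev s w.reverse = (w.map s).prod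
  | [] => by simp [EnumData.ev]
  | g :: w => by
    rw [List.reverse_cons, ev_append, ev_reverse_prod s w, List.map_cons, List.prod_cons]
    simp [EnumData.ev]

theorem ev_congr {G : Type*} [Group G] (s t : Nat → G) :
    ∀ w : List Nat, (∀ g ∈ w, s g = t g) → EnumData.ev s w = EnumData.ev t w
  | [], _ => rfl
  | g :: w, h => by
    rw [EnumData.ev, EnumData.ev, ev_congr s t w fun x hx => h x (List.mem_cons_of_mem _ hx),
      h g (List.mem_cons_self ..)]

/-- labels between the letters: the arms are `2,1,0`, `2,3,4,5,8,9` and `2,6,7` -/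
def lab (i j : Nat) : Nat :=
  if i = j then 1 else if (i, j) ∈ [(0,1),(1,0),(1,2),(2,1),(2,3),(3,2),(3,4),(4,3),(4,5),(5,4),
    (5,8),(8,5),(8,9),(9,8),(2,6),(6,2),(6,7),(7,6)] then 3 else 2

/-- the Coxeter relator words on the first `n` letters -/
def coxW (n : Nat) : List (List Nat) :=
  (List.range n).flatMap fun i => (List.range n).map fun j =>
    (List.replicate (lab i j) [j, i]).flatten

/-- the spider relator -/
def spiderW : List Nat := (List.replicate 10 [2,3,4,2,1,0,2,6,7].reverse).flatten

/-- ninth power of a Coxeter element of type E7 -/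
def cW : List Nat := (List.replicate 9 [2,3,1,6,4,0,5].reverse).flatten

/-- the same with the short arms exchanged -/
def cW' : List Nat := (List.replicate 9 [2,3,6,1,4,7,5].reverse).flatten

/-- fifteenth power of a Coxeter element of type E8 -/
def zW : List Nat := (List.replicate 15 [2,3,1,6,4,0,5,8].reverse).flatten

/-- relators of the diagram Y322 -/
def baseX : List (List Nat) := coxW 8 ++ [spiderW]

/-- generators in the free group -/
def freeVal (g : Nat) : FreeGroup (Fin 8) := if h : g < 8 then FreeGroup.of ⟨g, h⟩ else 1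

/-- relators in the free group -/
def relsX : Set (FreeGroup (Fin 8)) := {r | ∃ w ∈ baseX, EnumData.ev freeVal w = r}

/-- the presented group -/
abbrev XGrp : Type := PresentedGroup relsX

/-- its generators -/
def xval (g : Nat) : XGrp := PresentedGroup.mk relsX (freeVal g)

theorem xval_base (w : List Nat) (hw : w ∈ baseX) : EnumData.ev xval w = 1 := by
  show EnumData.ev (fun g => PresentedGroup.mk relsX (freeVal g)) w = 1
  rw [ev_comp]
  exact PresentedGroup.one_of_mem ⟨w, hw, rfl⟩

theorem sq_mem (g : Nat) (hg : g < 8) : [g, g] ∈ baseX := by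
  refine List.mem_append_left _ (List.mem_flatMap.2 ⟨g, List.mem_range.2 hg, ?_⟩)
  exact List.mem_map.2 ⟨g, List.mem_range.2 hg, by simp [lab]⟩

theorem xval_sq (g : Nat) : xval g * xval g = 1 := by
  by_cases hg : g < 8
  · have h := xval_base _ (sq_mem g hg)
    simpa [EnumData.ev] using h
  · simp [xval, freeVal, hg]

theorem wordGroupX : WordGroup XGrp xval baseX := ⟨xval_sq, xval_base⟩

theorem xval_closure : Subgroup.closure {x | ∃ g, g < 8 ∧ xval g = x} = (⊤ : Subgroup XGrp) := by
  rw [eq_top_iff, ← PresentedGroup.closure_range_of, Subgroup.closure_le]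
  rintro _ ⟨i, rfl⟩
  exact Subgroup.subset_closure ⟨i, i.2, by simp [xval, freeVal, PresentedGroup.of]⟩

/-- the map to a group satisfying the relators -/
def xhom {G : Type*} [Group G] (s : Nat → G) (hb : ∀ w ∈ baseX, EnumData.ev s w = 1) : XGrp →* G :=
  PresentedGroup.toGroup (rels := relsX) (f := fun i : Fin 8 => s i) (by
    rintro r ⟨w, hw, rfl⟩
    rw [← ev_comp]
    refine (ev_congr _ s w fun g hg => ?_).trans (hb w hw)
    have h8 : ∀ w ∈ baseX, ∀ g ∈ w, g < 8 := by decide +kernel
    simp [freeVal, h8 w hw g hg])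

theorem xhom_val {G : Type*} [Group G] (s : Nat → G) (hb : ∀ w ∈ baseX, EnumData.ev s w = 1)
    {g : Nat} (hg : g < 8) : xhom s hb (xval g) = s g := by
  rw [xval, freeVal, dif_pos hg]
  exact PresentedGroup.toGroup.of _

theorem xhom_ev {G : Type*} [Group G] (s : Nat → G) (hb : ∀ w ∈ baseX, EnumData.ev s w = 1)
    {w : List Nat} (hw : ∀ g ∈ w, g < 8) : xhom s hb (EnumData.ev xval w) = EnumData.ev s w := by
  rw [← ev_comp]
  exact ev_congr _ s w fun g hg => xhom_val s hb (hw g hg)

/-- does a word fix the base of the orthogonal group -/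
noncomputable def o7Fix (w : List Nat) : Bool :=
  w.all (fun g => Nat.ble (g + 1) 8) &&
    (allFixed O7U.base []).all (fun i => Nat.beq (O7U.data.run w i) i)

theorem o7_one {w : List Nat} (h : o7Fix w = true) : EnumData.ev O7U.val w = 1 := by
  simp only [o7Fix, Bool.and_eq_true, List.all_eq_true] at h
  obtain ⟨hcard, hinj⟩ := O7Order.card_and_faithful
  have h1 := O7U.theModel.pow_eq_one_of_base hinj O7U.base_ok O7U.base_prod hcard w
    (fun g hg => by
      have e : O7U.data.ng = 8 := rfl
      have := Nat.le_of_ble_eq_true (h.1 g hg)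
      omega) 1 (by
    rw [List.all_eq_true]
    intro i hi
    simpa using h.2 i hi)
  simpa using h1

theorem baseX_o7 : baseX.all o7Fix = true := by decide +kernel

/-- the map onto the orthogonal group -/
noncomputable def toO7 : XGrp →* O7U.Grp :=
  xhom O7U.val fun w hw => o7_one (List.all_eq_true.1 baseX_o7 w hw)

theorem ev_const_neg : ∀ w : List Nat, EnumData.ev (fun _ : Nat => (-1 : ℤˣ)) w = (-1) ^ w.length
  | [] => rfl
  | g :: w => by rw [EnumData.ev, ev_const_neg w, List.length_cons, pow_succ]

/-- the parity -/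
def parity : XGrp →* ℤˣ :=
  xhom (fun _ => -1) fun w hw => by
    have h : ∀ w ∈ baseX, w.length % 2 = 0 := by decide +kernel
    rw [ev_const_neg, Int.units_pow_eq_pow_mod_two, h w hw, pow_zero]

/-- both maps -/
noncomputable def psi : XGrp →* O7U.Grp × ℤˣ := toO7.prod parity

theorem psi_ev {w : List Nat} (hw : ∀ g ∈ w, g < 8) :
    psi (EnumData.ev xval w) = (EnumData.ev O7U.val w, (-1) ^ w.length) := by
  rw [psi, MonoidHom.prod_apply, toO7, parity, xhom_ev _ _ hw, xhom_ev _ _ hw, ev_const_neg]

theorem cW_ok : o7Fix cW = true ∧ cW.length % 2 = 1 := by decide +kernel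

theorem cW_lt : ∀ g ∈ cW, g < 8 := by decide +kernel

theorem psi_cW : psi (EnumData.ev xval cW) = (1, -1) := by
  rw [psi_ev cW_lt, o7_one cW_ok.1, Int.units_pow_eq_pow_mod_two, cW_ok.2, pow_one]

theorem parity_cW : parity (EnumData.ev xval cW) = -1 := by
  rw [parity, xhom_ev _ _ cW_lt, ev_const_neg, Int.units_pow_eq_pow_mod_two, cW_ok.2, pow_one]

theorem psi_surjective : Function.Surjective psi := by
  have htop : toO7.range = ⊤ := by
    rw [eq_top_iff, ← PresentedGroup.closure_range_of, Subgroup.closure_le]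
    rintro _ ⟨x, rfl⟩
    refine ⟨xval (O7U.gens.idxOf x), ?_⟩
    rw [toO7, xhom_val _ _ (show O7U.gens.idxOf x < 8 from
      List.idxOf_lt_length_iff.mpr (O7U.mem_gens x).1)]
    exact numGen_idxOf _ (O7U.mem_gens x).1
  rintro ⟨o, ε⟩
  obtain ⟨x, hx⟩ := MonoidHom.range_eq_top.1 htop o
  rcases Int.units_eq_one_or (ε * parity x) with h | h
  · refine ⟨x, ?_⟩
    rw [psi, MonoidHom.prod_apply, hx]
    rcases Int.units_eq_one_or ε with rfl | rfl <;>
      rcases Int.units_eq_one_or (parity x) with e | e <;> rw [e] at h ⊢ <;> simp_all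
  · refine ⟨EnumData.ev xval cW * x, ?_⟩
    rw [map_mul, psi_cW, psi, MonoidHom.prod_apply, hx, Prod.mk_mul_mk, one_mul]
    rcases Int.units_eq_one_or ε with rfl | rfl <;>
      rcases Int.units_eq_one_or (parity x) with e | e <;> rw [e] at h ⊢ <;> simp_all

theorem step4 : checkStep Fi22T4.weakData baseX [1,2,3,4] [] = true := by decide +kernel
theorem step3 : checkStep Fi22T3.weakData baseX [1,2,3,4,6] [1,2,3,4] = true := by decide +kernel
theorem step2 : checkStep Fi22T2.weakData baseX [0,1,2,3,4,6] [1,2,3,4,6] = true := by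
  decide +kernel
theorem step1 : checkStep XT.weakData baseX [0,1,2,3,4,5,6] [0,1,2,3,4,6] = true := by
  decide +kernel
theorem stepTop : checkStep XU.weakData baseX (List.range 8) [0,1,2,3,4,5,6] = true := by
  decide +kernel

theorem tower_prod : XU.weakData.n * (XT.weakData.n * (Fi22T2.weakData.n *
    (Fi22T3.weakData.n * (Fi22T4.weakData.n * 1)))) = 9170703360 := by decide +kernel

theorem finite_card_le : Finite XGrp ∧ Nat.card XGrp ≤ 9170703360 := by
  have h4 := tower_step wordGroupX Fi22T4.valid step4 (letterSub_nil _)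
  have h3 := tower_step wordGroupX Fi22T3.valid step3 h4
  have h2 := tower_step wordGroupX Fi22T2.valid step2 h3
  have h1 := tower_step wordGroupX XT.valid step1 h2
  have ht := tower_step wordGroupX XU.valid stepTop h1
  have htop : letterSub xval (List.range 8) = ⊤ := by
    rw [← xval_closure, letterSub]
    simp only [List.mem_range]
  rw [htop, Subgroup.card_top, tower_prod] at ht
  exact ⟨haveI := ht.1; Finite.of_equiv _ Subgroup.topEquiv.toEquiv, ht.2⟩

theorem psi_bijective : Function.Bijective psi := by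
  haveI := finite_card_le.1
  refine (Nat.bijective_iff_surjective_and_card _).mpr ⟨psi_surjective, le_antisymm ?_ ?_⟩
  · rw [Nat.card_prod, O7Order.card_and_faithful.1, Nat.card_eq_fintype_card (α := ℤˣ), Fintype.card_units_int]
    exact finite_card_le.2
  · exact Nat.card_le_card_of_surjective psi psi_surjective

/-- equality test for two words -/
noncomputable def xEq (u w : List Nat) : Bool :=
  (u.all fun g => Nat.ble (g + 1) 8) && (w.all fun g => Nat.ble (g + 1) 8) &&
    o7Fix (u ++ w.reverse) && Nat.beq (u.length % 2) (w.length % 2)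

theorem word_eq {G : Type*} [Group G] {s : Nat → G} (hb : ∀ w ∈ baseX, EnumData.ev s w = 1)
    {u w : List Nat} (h : xEq u w = true) : EnumData.ev s u = EnumData.ev s w := by
  simp only [xEq, Bool.and_eq_true, List.all_eq_true] at h
  obtain ⟨⟨⟨hu, hw⟩, hf⟩, hl⟩ := h
  have hu' : ∀ g ∈ u, g < 8 := fun g hg => Nat.le_of_ble_eq_true (hu g hg)
  have hw' : ∀ g ∈ w, g < 8 := fun g hg => Nat.le_of_ble_eq_true (hw g hg)
  have h1 := o7_one hf
  rw [ev_append, ev_reverse _ O7U.theModel.sq, inv_mul_eq_one] at h1
  have key : EnumData.ev xval u = EnumData.ev xval w := by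
    apply psi_bijective.1
    rw [psi_ev hu', psi_ev hw', h1, Int.units_pow_eq_pow_mod_two _ u.length,
      Nat.eq_of_beq_eq_true hl, ← Int.units_pow_eq_pow_mod_two]
  rw [← xhom_ev s hb hu', ← xhom_ev s hb hw', key]

theorem cW_central (x : XGrp) : EnumData.ev xval cW * x = x * EnumData.ev xval cW := by
  apply psi_bijective.1
  rw [map_mul, map_mul, psi_cW]
  exact Prod.ext (by simp) (mul_comm _ _)

theorem cW_sq : EnumData.ev xval cW * EnumData.ev xval cW = 1 := by
  apply psi_bijective.1
  rw [map_mul, psi_cW, map_one]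
  exact Prod.ext (by simp) (by simp)

theorem o7_noncomm : EnumData.ev O7U.val [0, 1] ≠ EnumData.ev O7U.val [1, 0] := fun h => by
  have hne : allFrom (fun i => Nat.beq (O7U.data.run [0, 1] i) (O7U.data.run [1, 0] i))
      O7U.data.n 0 = false := by decide +kernel
  have hlt : ∀ g ∈ [0, 1], g < O7U.data.ng := by decide +kernel
  have hlt' : ∀ g ∈ [1, 0], g < O7U.data.ng := by decide +kernel
  have ht : allFrom (fun i => Nat.beq (O7U.data.run [0, 1] i) (O7U.data.run [1, 0] i))
      O7U.data.n 0 = true := by
    have all_of : ∀ (p : Nat → Bool) (n lo : Nat), (∀ i, lo ≤ i → i < lo + n → p i = true) →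
        allFrom p n lo = true := by
      intro p n
      induction n with
      | zero => intros; rfl
      | succ n ih =>
        intro lo hp
        rw [allFrom_succ, Bool.and_eq_true]
        exact ⟨hp lo le_rfl (by omega), ih (lo + 1) fun i hi hi' => hp i (by omega) (by omega)⟩
    refine all_of _ _ _ fun i _ hi => ?_
    have hi' : i < O7U.data.n := by omega
    have e := congrArg (fun σ => ((σ ⟨i, hi'⟩ : Fin O7U.data.n) : Nat))
      (congrArg O7U.theModel.rho h)
    simp only [O7U.theModel.rho_ev, O7U.valid.perm_word _ hlt,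
      O7U.valid.perm_word _ hlt'] at e
    rw [e]
    simp
  rw [ht] at hne
  exact Bool.noConfusion hne

theorem o7_center : Subgroup.center O7U.Grp = ⊥ := by
  have := O7Order.isSimple
  rcases IsSimpleGroup.eq_bot_or_eq_top_of_normal (Subgroup.center O7U.Grp) inferInstance with h | h
  · exact h
  · refine absurd ?_ o7_noncomm
    have hc : O7U.val 0 ∈ Subgroup.center O7U.Grp := h ▸ Subgroup.mem_top _
    simp only [EnumData.ev, one_mul]
    exact Subgroup.mem_center_iff.1 hc (O7U.val 1)

/-- an odd element of the image commuting with the image is the ninth power -/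
theorem eq_cW_of_commute {G : Type*} [Group G] (φ : XGrp →* G) (χ : G →* ℤˣ)
    (hχ : ∀ x, χ (φ x) = parity x) {f : G} (hf : f ∈ φ.range) (hodd : χ f = -1)
    (hc : ∀ x, f * φ x = φ x * f) : f = φ (EnumData.ev xval cW) := by
  obtain ⟨x, rfl⟩ := hf
  obtain ⟨c, hc0⟩ : ∃ c, c = EnumData.ev xval cW := ⟨_, rfl⟩
  have hcc : ∀ z, c * z = z * c := hc0.symm ▸ cW_central
  have hc2 : c * c = 1 := hc0.symm ▸ cW_sq
  rw [← hc0]
  let e := MulEquiv.ofBijective psi psi_bijective
  let hm : O7U.Grp →* G := φ.comp (e.symm.toMonoidHom.comp (MonoidHom.inl _ _))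
  have hpc : parity c = -1 := hc0.symm ▸ parity_cW
  have hx : parity x = -1 := (hχ x).symm.trans hodd
  have hy : hm (toO7 (x * c)) = φ (x * c) := by
    show φ (e.symm (toO7 (x * c), 1)) = _
    refine congrArg φ ?_
    rw [MulEquiv.symm_apply_eq]
    show _ = psi (x * c)
    rw [psi, MonoidHom.prod_apply, map_mul parity, hpc, hx]
    simp
  have hcy : ∀ z, φ (x * c) * φ z = φ z * φ (x * c) := fun z => by
    rw [← map_mul φ (x * c), mul_assoc x c z, hcc z, map_mul, map_mul, ← mul_assoc, hc z,
      map_mul, mul_assoc]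
  have htriv : φ (x * c) = 1 := by
    have := O7Order.isSimple
    rcases IsSimpleGroup.eq_bot_or_eq_top_of_normal hm.ker inferInstance with h | h
    · have hmem : toO7 (x * c) ∈ Subgroup.center O7U.Grp := by
        refine Subgroup.mem_center_iff.2 fun p => (MonoidHom.ker_eq_bot_iff _).1 h ?_
        rw [map_mul hm, map_mul hm, hy]
        exact (hcy _).symm
      rw [o7_center, Subgroup.mem_bot] at hmem
      rw [← hy, hmem, map_one]
    · rw [← hy]
      exact MonoidHom.mem_ker.1 (h ▸ Subgroup.mem_top _)
  rw [map_mul] at htriv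
  rw [eq_inv_of_mul_eq_one_left htriv, ← map_inv]
  exact congrArg φ (inv_eq_of_mul_eq_one_right hc2)

end Cfsg.Agent.H47.Y555
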